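import Cfsg.Agent.Lib.SporRecognition.CosetCert.Basic
import Mathlib.Data.List.GetD

/-!
Monomial tables: a permutation of `1487` blocks with a rotation of each block by an element of `ℤ/12`.
The code of the point `k` of the block `b` is `12 b + k`; a table lists the codes of the images of the
points `12 b`.
-/

set_option autoImplicit false

namespace CfsgLib.SchurMult.M22

open CfsgLib.SporRecognition.CosetCert (field allBelow allBelow_spec)

/-- The number of blocks. -/
def nBlocks : ℕ := 1487

/-- Rotate a code in its block. -/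
noncomputable def rot (v k : ℕ) : ℕ :=
  Nat.add (Nat.mul 12 (Nat.div v 12)) (Nat.mod (Nat.add (Nat.mod v 12) k) 12)

/-- The image of a code under a table. -/
noncomputable def imgT (t u : ℕ) : ℕ := rot (field t 15 (Nat.div u 12)) (Nat.mod u 12)

/-- The image under a product of tables, the last applied first. -/
noncomputable def imgW (ts w : List ℕ) (u : ℕ) : ℕ :=
  List.rec (fun u => u) (fun i _ ih u => imgT (ts.getD i 0) (ih u)) w u

/-- Two products agree on the first point of every block. -/
noncomputable def sameW (ts w w' : List ℕ) : Bool :=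
  allBelow 11 nBlocks fun b => Nat.beq (imgW ts w (Nat.mul 12 b)) (imgW ts w' (Nat.mul 12 b))

theorem rot_eq (v k : ℕ) : rot v k = 12 * (v / 12) + (v % 12 + k) % 12 := rfl

theorem rot_rot (v j k : ℕ) : rot (rot v j) k = rot v (j + k) := by
  simp only [rot_eq]; omega

theorem rot_mod (v k : ℕ) : rot v (k % 12) = rot v k := by
  simp only [rot_eq]; omega

theorem rot_zero (v : ℕ) : rot v 0 = v := by
  simp only [rot_eq]; omega

theorem imgT_rot (t v k : ℕ) : imgT t (rot v k) = rot (imgT t v) k := by
  show rot (field t 15 (rot v k / 12)) (rot v k % 12) = rot (rot (field t 15 (v / 12)) (v % 12)) k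
  rw [rot_rot, rot_eq v k, show (12 * (v / 12) + (v % 12 + k) % 12) / 12 = v / 12 by omega,
    show (12 * (v / 12) + (v % 12 + k) % 12) % 12 = (v % 12 + k) % 12 by omega, rot_mod]

theorem imgW_nil (ts : List ℕ) (u : ℕ) : imgW ts [] u = u := rfl

theorem imgW_cons (ts : List ℕ) (i : ℕ) (w : List ℕ) (u : ℕ) :
    imgW ts (i :: w) u = imgT (ts.getD i 0) (imgW ts w u) := rfl

theorem imgW_rot (ts : List ℕ) : ∀ (w : List ℕ) (v k : ℕ), imgW ts w (rot v k) = rot (imgW ts w v) k
  | [], _, _ => rfl
  | i :: w, v, k => by rw [imgW_cons, imgW_cons, imgW_rot ts w, imgT_rot]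

/-- Products agreeing on the first points agree on all codes. -/
theorem sameW_spec {ts w w' : List ℕ} (h : sameW ts w w' = true) {u : ℕ} (hu : u < 12 * nBlocks) :
    imgW ts w u = imgW ts w' u := by
  have e : u = rot (12 * (u / 12)) (u % 12) := by simp only [rot_eq]; omega
  have hb : u / 12 < nBlocks := by omega
  rw [e, imgW_rot, imgW_rot]
  exact congrArg (fun x => rot x _) (Nat.eq_of_beq_eq_true (allBelow_spec h (u / 12) hb))

end CfsgLib.SchurMult.M22
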