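import Cfsg.Agent.Lib.SchurMult.M22.SylCert
import Cfsg.Agent.Lib.SchurMult.SquareGen
import Cfsg.Agent.Lib.OutMathieu.Outer

/-!
The local bounds for the stem extensions of `M22`.
-/

set_option autoImplicit false
set_option maxRecDepth 100000

namespace CfsgLib.SchurMult.M22

noncomputable section

open Cfsg CfsgLib.Golay CfsgLib.SchurMult.ModCollect
open scoped commutatorElement

attribute [local irreducible] Cfsg.Spor.M22

theorem card_M22' : Nat.card Spor.M22 = 443520 := by
  rw [CfsgLib.OutMathieu.M22_eq_stabK, card_stabK_two]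

theorem exists_sylEl {i : ℕ} (hi : i < 10) :
    ∃ g : Spor.M22, IsTbl (g : Equiv.Perm GolayPt) (sylTbls.getD i 0) := by
  have h := sylMem_eq
  simp only [sylMem, List.all_eq_true, List.mem_range, Bool.and_eq_true, beq_iff_eq] at h
  obtain ⟨⟨hin, h0⟩, h23⟩ := h i hi
  obtain ⟨g, hg⟩ := exists_isTbl (t := sylTbls.getD i 0) (by
    simp only [inM24, Bool.and_eq_true] at hin; exact hin.1)
  refine ⟨⟨g, ?_⟩, hg⟩
  unfold Spor.M22 Spor.M23
  refine Subgroup.mem_inf.2 ⟨Subgroup.mem_inf.2 ⟨mem_M24_of_isTbl hg hin, ?_⟩, ?_⟩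
  · refine MulAction.mem_stabilizer_iff.2 (idx_injective ?_)
    rw [Equiv.Perm.smul_def, hg]; exact h23
  · refine MulAction.mem_stabilizer_iff.2 (idx_injective ?_)
    rw [Equiv.Perm.smul_def, hg]; exact h0

/-- The listed elements. -/
def sylEl (i : ℕ) : Spor.M22 := if h : i < 10 then (exists_sylEl h).choose else 1

theorem sylEl_word : ∀ {w : List ℕ}, (∀ i ∈ w, i < 10) → ∀ p,
    idx ((lprod sylEl w : Spor.M22).1 p) = pimg w (idx p)
  | [], _, _ => rfl
  | i :: w, hw, p => by
    have hi := hw i (List.mem_cons_self ..)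
    rw [lprod, Subgroup.coe_mul, Equiv.Perm.mul_apply, pimg,
      ← sylEl_word (fun j hj => hw j (List.mem_cons_of_mem _ hj)) p, sylEl, dif_pos hi]
    exact (exists_sylEl hi).choose_spec _

theorem eq_of_pSame {w w' : List ℕ} (h : pSame w w' = true) (hw : ∀ i ∈ w, i < 10) (hw' : ∀ i ∈ w', i < 10) :
    lprod sylEl w = lprod sylEl w' := by
  simp only [pSame, List.all_eq_true, List.mem_range, beq_iff_eq] at h
  refine Subtype.ext (Equiv.ext fun p => idx_injective ?_)
  rw [sylEl_word hw, sylEl_word hw', h _ (idx_lt p)]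

theorem digits_lt_ten (x : ℕ) : ∀ i ∈ Collector.digits 7 x, i < 10 := fun i hi =>
  (digits_lt 7 x i hi).trans (by norm_num)

theorem syl_rel : ∀ v < sylCert.rels.length,
    lprod sylEl (sylCert.rels.getD v ([], [])).1 = lprod sylEl (sylCert.rels.getD v ([], [])).2 := by
  intro v hv
  have h := sylRel_eq
  simp only [sylRel, Bool.and_eq_true, List.all_eq_true, decide_eq_true_eq] at h
  rw [List.getD_eq_getElem _ _ hv]
  obtain ⟨⟨h1, h2⟩, h3⟩ := h.1 _ (List.getElem_mem hv)
  exact eq_of_pSame h3 (fun i hi => (h1 i hi).trans (by norm_num)) fun i hi => (h2 i hi).trans (by norm_num)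

theorem syl_conj : ∀ j < sylCert.conjs.length,
    sylEl (7 + (sylCert.conjs.getD j (0, 0, 0)).1) * nf sylEl 7 (sylCert.conjs.getD j (0, 0, 0)).2.1 *
      (sylEl (7 + (sylCert.conjs.getD j (0, 0, 0)).1))⁻¹ = nf sylEl 7 (sylCert.conjs.getD j (0, 0, 0)).2.2 := by
  intro j hj
  have h := sylRel_eq
  simp only [sylRel, Bool.and_eq_true, List.all_eq_true, decide_eq_true_eq] at h
  rw [List.getD_eq_getElem _ _ hj]
  obtain ⟨h1, h2⟩ := h.2 _ (List.getElem_mem hj)
  have e := eq_of_pSame h2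
    (fun i hi => (List.mem_cons.1 hi).elim (fun e => by omega) (digits_lt_ten _ i))
    (fun i hi => (List.mem_append.1 hi).elim (digits_lt_ten _ i) (fun e => by simp at e; omega))
  rw [lprod, lprod_append, lprod_digits, lprod_digits] at e
  simp only [lprod, mul_one] at e
  rw [mul_inv_eq_iff_eq_mul]
  exact e

theorem syl_inj : ∀ x < 128, ∀ y < 128, nf sylEl 7 x = nf sylEl 7 y → x = y := by
  intro x hx y hy e
  have h := sylInj_eq
  simp only [sylInj, decide_eq_true_eq] at h
  refine List.inj_on_of_nodup_map h (List.mem_range.2 hx) (List.mem_range.2 hy) ?_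
  refine List.map_congr_left fun u hu => ?_
  rw [List.mem_range] at hu
  have hp : idx (pt u) = u := idx_pt hu
  rw [← hp, ← sylEl_word (digits_lt_ten x), ← sylEl_word (digits_lt_ten y), lprod_digits, lprod_digits]
  show idx ((nf sylEl 7 x : Spor.M22).1 _) = idx ((nf sylEl 7 y : Spor.M22).1 _)
  rw [e]

/-- The Sylow `2`-subgroup. -/
def sylTwo : Subgroup Spor.M22 := Subgroup.closure (sylEl '' Set.Iio 7)

theorem sylTwo_card : Nat.card sylTwo = 128 := by
  have ht : ModCollect.Tails sylCert sylEl fun _ => (1 : Spor.M22) :=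
    ⟨fun _ => one_pow _, fun _ g => by simp, fun v hv => by rw [syl_rel v hv, mul_one]⟩
  have hnf : ∀ x, nf sylEl 7 x ∈ sylTwo := by
    intro x
    suffices ∀ k, k ≤ 7 → bprod sylEl k x ∈ sylTwo from this _ le_rfl
    intro k
    induction k with
    | zero => intro _; exact one_mem _
    | succ k ih =>
      intro hk
      rw [bprod]
      cases x.testBit k
      · exact ih (by omega)
      · exact mul_mem (ih (by omega)) (Subgroup.subset_closure ⟨k, Set.mem_Iio.2 (by omega), rfl⟩)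
  have hsub : ∀ z ∈ sylTwo, ∃ x < 128, z = nf sylEl 7 x := by
    intro z hz
    rw [sylTwo, ← Subgroup.mem_toSubmonoid, Subgroup.closure_toSubmonoid_of_finite] at hz
    induction hz using Submonoid.closure_induction_right with
    | one => exact ⟨0, by norm_num, (bprod_zero _ _).symm⟩
    | mul_right y _ g hg ih =>
      obtain ⟨x, hx, rfl⟩ := ih
      obtain ⟨i, hi, rfl⟩ := hg
      have hi' : i < sylCert.n := hi
      obtain ⟨hr, -, he⟩ := ht.step_spec sylTable_eq (sylCert.n - i) i (by omega) hi' x hx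
      refine ⟨_, hr, he.trans ?_⟩
      rw [show val (fun _ => (1 : Spor.M22)) sylCert.nv (sylCert.step x i).2 = 1 from
        Subgroup.mem_bot.1 (val_mem (fun _ => one_mem _) _ _), mul_one]
      rfl
  let F : Fin 128 → sylTwo := fun x => ⟨nf sylEl 7 x, hnf x⟩
  have hb : Function.Bijective F := ⟨fun a b h => Fin.ext (syl_inj a a.2 b b.2 (congrArg Subtype.val h)),
    fun ⟨z, hz⟩ => by obtain ⟨x, hx, rfl⟩ := hsub z hz; exact ⟨⟨x, hx⟩, rfl⟩⟩
  rw [← Nat.card_eq_of_bijective F hb, Nat.card_eq_fintype_card, Fintype.card_fin]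

variable {Γ : Type} [Group Γ] [Finite Γ] {σ : Γ →* Spor.M22}

/-- Kernel elements in the derived group of a preimage are killed by the order of the subgroup. -/
theorem pow_card_of_mem {G : Type} [Group G] {Δ : Type} [Group Δ] [Finite Δ] {τ : Δ →* G}
    (hs : Function.Surjective τ) (hc : τ.ker ≤ Subgroup.center Δ) (H : Subgroup G) {z : Δ}
    (hz : z ∈ ⁅H.comap τ, H.comap τ⁆) (hzk : z ∈ τ.ker) : z ^ Nat.card H = 1 := by
  set K : Subgroup (H.comap τ) := τ.ker.subgroupOf (H.comap τ)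
  have hzH : z ∈ H.comap τ := by
    show τ z ∈ H
    rw [MonoidHom.mem_ker.1 hzk]; exact one_mem H
  set z' : H.comap τ := ⟨z, hzH⟩
  have hz' : z' ∈ _root_.commutator (H.comap τ) := by
    have : z ∈ (_root_.commutator (H.comap τ)).map (H.comap τ).subtype := by
      rwa [commutator_def, Subgroup.map_commutator, ← MonoidHom.range_eq_map, Subgroup.range_subtype]
    obtain ⟨w, hw, e⟩ := this
    rwa [show z' = w from Subtype.ext e.symm]
  have hzc : z' ∈ Subgroup.center (H.comap τ) := Subgroup.mem_center_iff.2 fun g =>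
    Subtype.ext (Subgroup.mem_center_iff.1 (hc hzk) g)
  have h := pow_index_mem_commutator K hzc hz'
  have hK : ⁅K, K⁆ = ⊥ := by
    rw [eq_bot_iff, Subgroup.commutator_le]
    intro a ha b _
    rw [Subgroup.mem_bot, commutatorElement_eq_one_iff_mul_comm]
    exact Subtype.ext (Subgroup.mem_center_iff.1 (hc ha) b).symm
  have hidx : K.index = Nat.card H := by
    rw [show K = (τ.subgroupComap H).ker by
      ext a; exact ⟨fun h => Subtype.ext h, fun h => congrArg Subtype.val h⟩,
      Subgroup.index_ker, MonoidHom.range_eq_top.2 (fun g => ?_), Subgroup.card_top]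
    obtain ⟨a, ha⟩ := hs g
    exact ⟨⟨a, show τ a ∈ H by rw [ha]; exact g.2⟩, Subtype.ext ha⟩
  rw [hK, hidx, Subgroup.mem_bot] at h
  exact congrArg Subtype.val h

/-- The bound at two. -/
theorem two_bound (hσ : Cfsg.IsStemExtension σ) :
    ∃ c : Γ, c ^ 4 = 1 ∧ ∀ z ∈ ⁅sylTwo.comap σ, sylTwo.comap σ⁆, z ∈ σ.ker → z ∈ Subgroup.zpowers c := by
  classical
  have hcen : ∀ k ∈ σ.ker, ∀ g : Γ, g * k = k * g := fun k hk g => Subgroup.mem_center_iff.1 (hσ.2.1 hk) g
  -- the `128`-th powers in the kernel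
  let M : Subgroup Γ :=
    { carrier := {x | ∃ k ∈ σ.ker, x = k ^ 128}
      one_mem' := ⟨1, one_mem _, (one_pow _).symm⟩
      mul_mem' := by
        rintro _ _ ⟨a, ha, rfl⟩ ⟨b, hb, rfl⟩
        exact ⟨a * b, mul_mem ha hb, ((show Commute a b from hcen b hb a).mul_pow 128).symm⟩
      inv_mem' := by
        rintro _ ⟨a, ha, rfl⟩
        exact ⟨a⁻¹, inv_mem ha, (inv_pow a 128).symm⟩ }
  have hMk : M ≤ σ.ker := by rintro _ ⟨k, hk, rfl⟩; exact pow_mem hk _
  haveI : M.Normal := ⟨fun x hx g => by rwa [hcen x (hMk hx) g, mul_inv_cancel_right]⟩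
  let q := QuotientGroup.mk' M
  let τ : Γ ⧸ M →* Spor.M22 := QuotientGroup.lift M σ hMk
  have hτ : ∀ a, τ (q a) = σ a := fun a => rfl
  have hτk : ∀ {w : Γ ⧸ M}, w ∈ τ.ker → ∃ a ∈ σ.ker, q a = w := by
    intro w hw
    obtain ⟨a, rfl⟩ := QuotientGroup.mk'_surjective M w
    exact ⟨a, (hτ a).symm.trans (MonoidHom.mem_ker.1 hw), rfl⟩
  obtain ⟨u, huk, hu4, hall⟩ := exists_gen (Δ := Γ ⧸ M) sylCert sylEl (fun k => sylEl (7 + k)) sylTable_eq
    sylSolved_eq sylDerived_eq syl_rel syl_conj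
    (fun x hx h => syl_inj x hx 0 (by norm_num) (h.trans (bprod_zero sylEl 7).symm))
    τ (fun g => (hσ.1 g).elim fun a ha => ⟨q a, (hτ a).trans ha⟩)
    (fun w hw => by
      obtain ⟨a, ha, rfl⟩ := hτk hw
      refine Subgroup.mem_center_iff.2 fun g => ?_
      obtain ⟨b, rfl⟩ := QuotientGroup.mk'_surjective M g
      rw [← map_mul, ← map_mul, hcen a ha b])
    (fun w hw => by
      obtain ⟨a, ha, rfl⟩ := hτk hw
      rw [← map_pow]
      exact (QuotientGroup.eq_one_iff _).2 ⟨a, ha, rfl⟩)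
  obtain ⟨c₀, hc₀k, rfl⟩ := hτk huk
  have hN : ∀ k ∈ σ.ker, k ^ 443520 = 1 := fun k hk => by rw [← card_M22']; exact ker_pow_card hσ hk
  have hM1 : ∀ x ∈ M, x ^ 3465 = 1 := by
    rintro _ ⟨k, hk, rfl⟩
    rw [← pow_mul]; exact hN k hk
  refine ⟨c₀ ^ 3465, ?_, fun z hz hzk => ?_⟩
  · rw [← pow_mul, Nat.mul_comm, pow_mul]
    refine hM1 _ ((QuotientGroup.eq_one_iff _).1 ?_)
    show q (c₀ ^ 4) = 1
    rw [map_pow]; exact hu4
  · have h128 : z ^ 128 = 1 := sylTwo_card ▸ pow_card_of_mem hσ.1 hσ.2.1 sylTwo hz hzk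
    have hqz : q z ∈ ⁅sylTwo.comap τ, sylTwo.comap τ⁆ := by
      have h1 := Subgroup.mem_map_of_mem q hz
      rw [Subgroup.map_commutator] at h1
      have hle : (sylTwo.comap σ).map q ≤ sylTwo.comap τ := by
        rintro _ ⟨a, ha, rfl⟩; exact ha
      exact Subgroup.commutator_mono hle hle h1
    obtain ⟨i, hi⟩ := hall _ hqz (by rw [MonoidHom.mem_ker, hτ]; exact MonoidHom.mem_ker.1 hzk)
    have hmem : (c₀ ^ i)⁻¹ * z ∈ M := QuotientGroup.eq.1 (by
      show q (c₀ ^ i) = q z
      rw [map_zpow]; exact hi)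
    have h3 : z ^ 3465 = (c₀ ^ 3465) ^ i := by
      have hcomm : Commute ((c₀ ^ i)⁻¹) z := hcen z hzk _
      have := hM1 _ hmem
      rw [hcomm.mul_pow, inv_pow, inv_mul_eq_one] at this
      rw [← this, ← zpow_natCast, ← zpow_mul, ← zpow_natCast, ← zpow_mul, mul_comm]
    obtain ⟨m, hm⟩ := exists_pow_eq_self_of_coprime (x := z) (n := 3465)
      (Nat.Coprime.of_dvd_right (orderOf_dvd_of_pow_eq_one h128) (by norm_num))
    rw [← hm, h3]
    exact pow_mem (Subgroup.zpow_mem_zpowers _ i) m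

theorem factorization_twelve : (12 : ℕ).factorization 2 = 2 ∧ (12 : ℕ).factorization 3 = 1 := by
  constructor
  · rw [Nat.factorization_def _ Nat.prime_two, show (12 : ℕ) = 2 ^ 2 * 3 from rfl,
      padicValNat.mul (by norm_num) (by norm_num), padicValNat.prime_pow,
      padicValNat.eq_zero_of_not_dvd (by norm_num)]
  · rw [Nat.factorization_def _ Nat.prime_three, show (12 : ℕ) = 3 ^ 1 * 4 from rfl,
      padicValNat.mul (by norm_num) (by norm_num), padicValNat.prime_pow,
      padicValNat.eq_zero_of_not_dvd (by norm_num)]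

/-- The local bounds. -/
theorem local_bound (hσ : Cfsg.IsStemExtension σ) (p : ℕ) (hp : p.Prime) :
    p ∣ Nat.card Spor.M22 → ∃ H : Subgroup Spor.M22, ¬ p ∣ H.index ∧
      ∃ c : Γ, c ^ p ^ (12 : ℕ).factorization p = 1 ∧
        ∀ z ∈ ⁅H.comap σ, H.comap σ⁆, z ∈ σ.ker → z ∈ Subgroup.zpowers c := by
  intro _
  haveI : Fact p.Prime := ⟨hp⟩
  by_cases h2 : p = 2
  · subst h2
    refine ⟨sylTwo, ?_, ?_⟩
    · have := sylTwo.card_mul_index
      rw [sylTwo_card, card_M22'] at this
      omega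
    · obtain ⟨c, hc, h⟩ := two_bound hσ
      exact ⟨c, by rw [factorization_twelve.1]; exact hc, h⟩
  obtain ⟨P⟩ : Nonempty (Sylow p Spor.M22) := inferInstance
  by_cases h3 : p = 3
  · subst h3
    have hP : Nat.card P = 3 ^ 2 := by
      rw [P.card_eq_multiplicity, card_M22', Nat.factorization_def _ Nat.prime_three,
        show (443520 : ℕ) = 3 ^ 2 * 49280 from rfl, padicValNat.mul (by norm_num) (by norm_num),
        padicValNat.prime_pow, padicValNat.eq_zero_of_not_dvd (by norm_num)]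
    obtain ⟨c, -, hc3, hle⟩ := exists_comm_gen_of_square hσ.2.1 hσ.1 (P : Subgroup Spor.M22) hP
    exact ⟨P, P.not_dvd_index, c, by rw [factorization_twelve.2]; exact hc3, fun z hz _ => hle hz⟩
  · refine ⟨P, P.not_dvd_index, 1, one_pow _, fun z hz hzk => ?_⟩
    have hsq : ¬ p ^ 2 ∣ Nat.card Spor.M22 := by
      rw [card_M22']
      intro h
      have hd : p ∣ 2 ^ 7 * 3 ^ 2 * 5 * 7 * 11 := dvd_trans (dvd_pow_self p two_ne_zero) h
      have h' : ∀ q : ℕ, q.Prime → p ∣ q → p = q := fun q hq hd => (Nat.prime_dvd_prime_iff_eq hp hq).1 hd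
      rcases hp.dvd_mul.1 hd with hd | hd
      · rcases hp.dvd_mul.1 hd with hd | hd
        · rcases hp.dvd_mul.1 hd with hd | hd
          · rcases hp.dvd_mul.1 hd with hd | hd
            · exact h2 (h' 2 Nat.prime_two (hp.dvd_of_dvd_pow hd))
            · exact h3 (h' 3 Nat.prime_three (hp.dvd_of_dvd_pow hd))
          · obtain rfl := h' 5 (by norm_num) hd; norm_num at h
        · obtain rfl := h' 7 (by norm_num) hd; norm_num at h
      · obtain rfl := h' 11 (by norm_num) hd; norm_num at h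
    haveI : IsCyclic (P : Subgroup Spor.M22) := by
      have hcard : Nat.card (P : Subgroup Spor.M22) ∣ p := by
        rw [P.card_eq_multiplicity]
        refine (Nat.pow_dvd_pow p ?_).trans (pow_one p).dvd
        by_contra h
        exact hsq ((hp.pow_dvd_iff_le_factorization Nat.card_pos.ne').2 (by omega))
      rcases (Nat.dvd_prime hp).1 hcard with h | h
      · haveI := (Nat.card_eq_one_iff_unique.1 h).1; exact isCyclic_of_subsingleton
      · exact isCyclic_of_prime_card h
    rw [commutator_comap_eq_bot_of_isCyclic hσ.2.1 hσ.1, Subgroup.mem_bot] at hz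
    rw [hz]; exact one_mem _

end

end CfsgLib.SchurMult.M22
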