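import Cfsg.Agent.Lib.SchurMult.M22.Data
import Cfsg.Agent.Lib.Golay.Chain

/-!
Checks on the tables of the twelvefold cover of `M22`: permutations, inverses, powers of the central element,
representatives, the action on the code, centrality, the commutator word.
-/

set_option autoImplicit false
set_option maxHeartbeats 0
set_option maxRecDepth 100000

namespace CfsgLib.SchurMult.M22

open CfsgLib.SporRecognition.CosetCert (field allBelow)

/-- The index of the inverse of a named element. -/
def invIdx (i : ℕ) : ℕ := if i < 6 then 7 + i else if i = 6 then 24 else i - 7

/-- The named tables are permutations. -/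
noncomputable def permOK : Bool :=
  (List.range 13).all fun i => sameW ts [i, invIdx i] [] && sameW ts [invIdx i, i] [] &&
    allBelow 11 nBlocks (fun b => Nat.blt (field (ts.getD i 0) 15 b) (Nat.mul 12 nBlocks))

theorem permOK_eq : permOK = true := by decide +kernel

/-- The central element. -/
noncomputable def centreOK : Bool :=
  ((List.range 6).all fun i => sameW ts [6, i] [i, 6]) && sameW ts (List.replicate 12 6) [] &&
    ((List.range 12).all fun m => sameW ts [13 + m] (List.replicate m 6)) &&
    (List.range 11).all fun m =>
      !(Nat.beq (imgW ts (List.replicate (m + 1) 6) 288) 288 &&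
        Nat.beq (imgW ts (List.replicate (m + 1) 6) 3060) 3060)

theorem centreOK_eq : centreOK = true := by decide +kernel

/-- The representatives are the stated words. -/
noncomputable def repOK : Bool :=
  (List.range 82).all fun j => sameW ts [25 + j] (repWords.getD j [])

theorem repOK_eq : repOK = true := by decide +kernel

/-- The inverse of a word in the generators. -/
def invWord (w : List ℕ) : List ℕ := w.reverse.map invIdx

/-- The commutator word. -/
def commList : List ℕ :=
  commWord.1 ++ commWord.2.1 ++ invWord commWord.1 ++ invWord commWord.2.1 ++ commWord.2.2.2 ++
    commWord.2.2.1 ++ invWord commWord.2.2.2 ++ invWord commWord.2.2.1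

theorem commOK_eq : sameW ts commList (List.replicate commExp 6) = true := by decide +kernel

/-- The actions on the code. -/
noncomputable def pointsOK : Bool :=
  (List.range 13).all fun i =>
    CfsgLib.Golay.inM24 (pointTbls.getD i 0) &&
      Nat.beq (CfsgLib.Golay.tblAt (pointTbls.getD i 0) 0) 0 &&
      Nat.beq (CfsgLib.Golay.tblAt (pointTbls.getD i 0) 23) 23 &&
      (List.range 24).all fun u =>
        Nat.beq (field (ts.getD i 0) 15 u) (Nat.mul 12 (CfsgLib.Golay.tblAt (pointTbls.getD i 0) u))

theorem pointsOK_eq : pointsOK = true := by decide +kernel

/-- The representatives form transversals of the chain on the base points. -/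
noncomputable def chainOK : Bool :=
  (List.range 5).all fun k =>
    ((reps.getD k []).all fun i => (List.range k).all fun j =>
      Nat.beq (imgT (ts.getD i 0) (12 * basePts.getD j 0)) (12 * basePts.getD j 0)) &&
    decide ((reps.getD k []).map fun i => imgT (ts.getD i 0) (12 * basePts.getD k 0)).Nodup

theorem chainOK_eq : chainOK = true := by decide +kernel

end CfsgLib.SchurMult.M22
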