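import Cfsg.Agent.Lib.SchurMult.M22.Rule

/-!
Products of generators and representatives in the cover of `M22`, part C.
-/

set_option autoImplicit false
set_option maxHeartbeats 0
set_option maxRecDepth 100000

namespace CfsgLib.SchurMult.M22

theorem ruleOK0_4 : ruleOK 0 4 = true := by decide +kernel

theorem ruleOK0_5 : ruleOK 0 5 = true := by decide +kernel

theorem ruleOK0_6 : ruleOK 0 6 = true := by decide +kernel

theorem ruleOK1_0 : ruleOK 1 0 = true := by decide +kernel

theorem ruleOK1_1 : ruleOK 1 1 = true := by decide +kernel

end CfsgLib.SchurMult.M22
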