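import Cfsg.Agent.Lib.SchurMult.M22.Rule

/-!
Products of generators and representatives in the cover of `M22`, part E.
-/

set_option autoImplicit false
set_option maxHeartbeats 0
set_option maxRecDepth 100000

namespace CfsgLib.SchurMult.M22

theorem ruleOK2_0 : ruleOK 2 0 = true := by decide +kernel

theorem ruleOK2_1 : ruleOK 2 1 = true := by decide +kernel

theorem ruleOK2_2 : ruleOK 2 2 = true := by decide +kernel

theorem ruleOK2_3 : ruleOK 2 3 = true := by decide +kernel

theorem ruleOK2_4 : ruleOK 2 4 = true := by decide +kernel

theorem ruleOK3_0 : ruleOK 3 0 = true := by decide +kernel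

theorem ruleOK3_1 : ruleOK 3 1 = true := by decide +kernel

theorem ruleOK3_2 : ruleOK 3 2 = true := by decide +kernel

theorem ruleOK3_3 : ruleOK 3 3 = true := by decide +kernel

theorem ruleOK4_0 : ruleOK 4 0 = true := by decide +kernel

theorem ruleOK4_1 : ruleOK 4 1 = true := by decide +kernel

end CfsgLib.SchurMult.M22
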