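import Cfsg.Agent.Lib.SchurMult.M22.CertA
import Cfsg.Agent.Lib.SchurMult.TwoCollect

/-!
The elements of the twelvefold cover of `M22` as permutations of `1487 * 12` codes.
-/

set_option autoImplicit false
set_option maxRecDepth 100000

namespace CfsgLib.SchurMult.M22

noncomputable section

open CfsgLib.SporRecognition.CosetCert (field allBelow_spec)
open CfsgLib.SchurMult (lprod lprod_append)

/-- The codes. -/
abbrev Code : Type := Fin (12 * nBlocks)

theorem invIdx_lt : ∀ i < 13, invIdx i < 25 := by decide +kernel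

theorem imgT_lt {i : ℕ} (hi : i < 13) (u : ℕ) (hu : u < 12 * nBlocks) :
    imgT (ts.getD i 0) u < 12 * nBlocks := by
  have h := permOK_eq
  simp only [permOK, List.all_eq_true, List.mem_range, Bool.and_eq_true] at h
  have hf := allBelow_spec (h i hi).2 (u / 12) (by omega)
  simp only [Nat.blt_eq] at hf
  replace hf : field (ts.getD i 0) 15 (u / 12) < 12 * nBlocks := hf
  show rot (field (ts.getD i 0) 15 (u / 12)) (u % 12) < _
  simp only [rot_eq]; omega

theorem sameW_of_perm {i : ℕ} (hi : i < 13) :
    sameW ts [i, invIdx i] [] = true ∧ sameW ts [invIdx i, i] [] = true := by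
  have h := permOK_eq
  simp only [permOK, List.all_eq_true, List.mem_range, Bool.and_eq_true] at h
  exact ⟨(h i hi).1.1, (h i hi).1.2⟩

theorem imgT_inj {i : ℕ} (hi : i < 13) {u v : ℕ} (hu : u < 12 * nBlocks) (hv : v < 12 * nBlocks)
    (h : imgT (ts.getD i 0) u = imgT (ts.getD i 0) v) : u = v := by
  have h1 := sameW_spec (sameW_of_perm hi).2 hu
  have h2 := sameW_spec (sameW_of_perm hi).2 hv
  simp only [imgW_cons, imgW_nil] at h1 h2
  rw [← h1, ← h2, h]

/-- A named element as a permutation. -/
def el₀ (i : ℕ) : Equiv.Perm Code :=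
  if h : i < 13 then
    Equiv.ofBijective (fun u => ⟨imgT (ts.getD i 0) u, imgT_lt h u u.2⟩)
      (Finite.injective_iff_bijective.1 fun u v e =>
        Fin.ext (imgT_inj h u.2 v.2 (congrArg Fin.val e)))
  else 1

/-- All the listed elements. -/
def el (i : ℕ) : Equiv.Perm Code :=
  if i < 13 then el₀ i else if i < 25 then el₀ 6 ^ (i - 13) else lprod el₀ (repWords.getD (i - 25) [])

theorem el₀_val {i : ℕ} (hi : i < 13) (u : Code) : ((el₀ i u : Code) : ℕ) = imgT (ts.getD i 0) u := by
  rw [el₀, dif_pos hi]; rfl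

theorem lprod_el₀_val : ∀ {w : List ℕ}, (∀ i ∈ w, i < 13) → ∀ u : Code,
    ((lprod el₀ w u : Code) : ℕ) = imgW ts w u
  | [], _, u => by simp [lprod, imgW_nil]
  | i :: w, hw, u => by
    rw [lprod, Equiv.Perm.mul_apply, el₀_val (hw i (List.mem_cons_self ..)),
      lprod_el₀_val (fun j hj => hw j (List.mem_cons_of_mem _ hj)), imgW_cons]

theorem lprod_replicate {M : Type*} [Group M] (f : ℕ → M) (i : ℕ) :
    ∀ k, lprod f (List.replicate k i) = f i ^ k
  | 0 => by simp [lprod]
  | k + 1 => by rw [List.replicate_succ, lprod, lprod_replicate f i k, pow_succ']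

theorem repWords_lt : ∀ j < 82, ∀ i ∈ repWords.getD j [], i < 6 := by decide +kernel

theorem el_val {i : ℕ} (hi : i < 107) (u : Code) : ((el i u : Code) : ℕ) = imgT (ts.getD i 0) u := by
  rw [el]
  split_ifs with h h'
  · exact el₀_val h u
  · have hc := centreOK_eq
    simp only [centreOK, List.all_eq_true, List.mem_range, Bool.and_eq_true] at hc
    have e := sameW_spec (hc.1.2 (i - 13) (by omega)) u.2
    rw [imgW_cons, imgW_nil, show 13 + (i - 13) = i by omega] at e
    rw [← lprod_replicate el₀ 6 (i - 13),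
      lprod_el₀_val (fun j hj => by rw [List.eq_of_mem_replicate hj]; norm_num), e]
  · have hr := repOK_eq
    simp only [repOK, List.all_eq_true, List.mem_range] at hr
    have e := sameW_spec (hr (i - 25) (by omega)) u.2
    rw [imgW_cons, imgW_nil, show 25 + (i - 25) = i by omega] at e
    rw [lprod_el₀_val (fun j hj => (repWords_lt _ (by omega) j hj).trans (by norm_num)), e]

theorem lprod_val : ∀ {w : List ℕ}, (∀ i ∈ w, i < 107) → ∀ u : Code,
    ((lprod el w u : Code) : ℕ) = imgW ts w u
  | [], _, u => by simp [lprod, imgW_nil]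
  | i :: w, hw, u => by
    rw [lprod, Equiv.Perm.mul_apply, el_val (hw i (List.mem_cons_self ..)),
      lprod_val (fun j hj => hw j (List.mem_cons_of_mem _ hj)), imgW_cons]

/-- Products with the same check give the same element. -/
theorem eq_of_sameW {w w' : List ℕ} (h : sameW ts w w' = true) (hw : ∀ i ∈ w, i < 107)
    (hw' : ∀ i ∈ w', i < 107) : lprod el w = lprod el w' :=
  Equiv.ext fun u => Fin.ext (by rw [lprod_val hw, lprod_val hw']; exact sameW_spec h u.2)

theorem el_low {i : ℕ} (hi : i < 13) : el i = el₀ i := by rw [el, if_pos hi]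

theorem el_zpow {m : ℕ} (hm : m < 12) : el (13 + m) = el 6 ^ m := by
  rw [el, if_neg (by omega), if_pos (by omega), el_low (by norm_num), Nat.add_sub_cancel_left]

theorem el_rep {j : ℕ} (hj : j < 82) : el (25 + j) = lprod el (repWords.getD j []) := by
  rw [el, if_neg (by omega), if_neg (by omega), Nat.add_sub_cancel_left]
  have : ∀ w : List ℕ, (∀ i ∈ w, i < 13) → lprod el w = lprod el₀ w := by
    intro w
    induction w with
    | nil => intro _; rfl
    | cons i w ih =>
      intro hw
      rw [lprod, lprod, ih (fun j hj => hw j (List.mem_cons_of_mem _ hj)), el_low (hw i (List.mem_cons_self ..))]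
  exact (this _ fun i hi => (repWords_lt j hj i hi).trans (by norm_num)).symm

theorem z_pow_twelve : el 6 ^ 12 = 1 := by
  have hc := centreOK_eq
  simp only [centreOK, List.all_eq_true, List.mem_range, Bool.and_eq_true] at hc
  rw [← lprod_replicate]
  exact eq_of_sameW hc.1.1.2 (fun j hj => by rw [List.eq_of_mem_replicate hj]; norm_num) (by simp)

theorem z_comm {i : ℕ} (hi : i < 6) : Commute (el 6) (el i) := by
  have hc := centreOK_eq
  simp only [centreOK, List.all_eq_true, List.mem_range, Bool.and_eq_true] at hc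
  have e := eq_of_sameW (hc.1.1.1 i hi) (fun j hj => by simp at hj; omega) (fun j hj => by simp at hj; omega)
  show el 6 * el i = el i * el 6
  simpa [lprod] using e

theorem z_pow_eq_one {m : ℕ} (h : el 6 ^ m = 1) : 12 ∣ m := by
  rw [← Nat.mod_add_div m 12, pow_add, pow_mul, z_pow_twelve, one_pow, mul_one] at h
  by_contra hne
  obtain ⟨r, hr, hr11⟩ : ∃ r, m % 12 = r + 1 ∧ r < 11 := ⟨m % 12 - 1, by omega, by omega⟩
  have hc := centreOK_eq
  simp only [centreOK, List.all_eq_true, List.mem_range, Bool.and_eq_true, Bool.not_eq_true',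
    Bool.and_eq_false_iff] at hc
  rw [hr, ← lprod_replicate] at h
  have key : ∀ u : Code, imgW ts (List.replicate (r + 1) 6) u = u := fun u => by
    rw [← lprod_val (fun j hj => by rw [List.eq_of_mem_replicate hj]; norm_num), h]; rfl
  rcases hc.2 r hr11 with e | e
  · exact Nat.ne_of_beq_eq_false e (key ⟨288, by norm_num [nBlocks]⟩)
  · exact Nat.ne_of_beq_eq_false e (key ⟨3060, by norm_num [nBlocks]⟩)

end

end CfsgLib.SchurMult.M22
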