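import Cfsg.Agent.Lib.SchurMult.M22.CertB
import Cfsg.Agent.Lib.SchurMult.M22.CertC
import Cfsg.Agent.Lib.SchurMult.M22.CertD
import Cfsg.Agent.Lib.SchurMult.M22.CertE
import Cfsg.Agent.Lib.SchurMult.M22.Elements

/-!
The normal form in the twelvefold cover of `M22` along a stabiliser chain on five points.
-/

set_option autoImplicit false
set_option maxRecDepth 100000

namespace CfsgLib.SchurMult.M22

noncomputable section

open CfsgLib.SchurMult (lprod lprod_append)

attribute [local irreducible] el ts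

/-- The group generated at one level. -/
def Gk (k : ℕ) : Subgroup (Equiv.Perm Code) := Subgroup.closure (el '' {i | i ∈ levels.getD k []})

/-- The covering group. -/
def Cover : Subgroup (Equiv.Perm Code) := Gk 0

theorem Gk_induction {k : ℕ} {p : Equiv.Perm Code → Prop} (h1 : p 1)
    (hmul : ∀ i ∈ levels.getD k [], ∀ g ∈ Gk k, p g → p (el i * g)) {g : Equiv.Perm Code} (hg : g ∈ Gk k) :
    p g := by
  have : g ∈ Gk k ∧ p g := by
    rw [Gk, ← Subgroup.mem_toSubmonoid, Subgroup.closure_toSubmonoid_of_finite] at hg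
    induction hg using Submonoid.closure_induction_left with
    | one => exact ⟨one_mem _, h1⟩
    | mul_left u hu y _ ih =>
      obtain ⟨i, hi, rfl⟩ := hu
      exact ⟨mul_mem (Subgroup.subset_closure ⟨i, hi, rfl⟩) ih.1, hmul i hi y ih.1 ih.2⟩
  exact this.2

/-- The representatives at a level. -/
def R (k : ℕ) : List ℕ := reps.getD k []

theorem level_facts : levels.getD 0 [] = [0, 1, 2, 3, 4, 5, 6] ∧ levels.getD 5 [] = [6] ∧
    (∀ k < 6, ∀ i ∈ levels.getD k [], i < 7) ∧ (∀ k < 6, 6 ∈ levels.getD k []) ∧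
    ∀ k < 5, ∀ i ∈ levels.getD (k + 1) [], i ∈ levels.getD k [] := by decide +kernel

theorem rep_facts : (∀ k < 5, ∀ i ∈ R k, 25 ≤ i ∧ i < 107 ∧
      ∀ j ∈ repWords.getD (i - 25) [], j ∈ levels.getD k []) ∧
    (∀ k < 5, ∃ i ∈ R k, repWords.getD (i - 25) [] = []) ∧
    (R 0).length = 22 ∧ (R 1).length = 21 ∧ (R 2).length = 20 ∧ (R 3).length = 16 ∧ (R 4).length = 3 := by
  decide +kernel

theorem Gk_mono {k : ℕ} (hk : k < 5) : Gk (k + 1) ≤ Gk k :=
  Subgroup.closure_mono (Set.image_mono fun i hi => level_facts.2.2.2.2 k hk i hi)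

theorem Gk_le_cover : ∀ {k : ℕ}, k < 6 → Gk k ≤ Cover
  | 0, _ => le_rfl
  | k + 1, hk => (Gk_mono (by omega)).trans (Gk_le_cover (by omega))

theorem z_mem {k : ℕ} (hk : k < 6) : el 6 ∈ Gk k :=
  Subgroup.subset_closure ⟨6, level_facts.2.2.2.1 k hk, rfl⟩

theorem gen_mem {i : ℕ} (hi : i < 7) : el i ∈ Cover := by
  refine Subgroup.subset_closure ⟨i, ?_, rfl⟩
  show i ∈ levels.getD 0 []
  rw [level_facts.1]
  have : ∀ j < 7, j ∈ ([0, 1, 2, 3, 4, 5, 6] : List ℕ) := by decide
  exact this i hi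

theorem lprod_mem {M : Type*} [Group M] {f : ℕ → M} {H : Subgroup M} :
    ∀ {w : List ℕ}, (∀ i ∈ w, f i ∈ H) → lprod f w ∈ H
  | [], _ => one_mem H
  | i :: w, h => mul_mem (h i (List.mem_cons_self ..)) (lprod_mem fun j hj => h j (List.mem_cons_of_mem _ hj))

theorem rep_mem {k : ℕ} (hk : k < 5) {i : ℕ} (hi : i ∈ R k) : el i ∈ Gk k := by
  obtain ⟨h25, h107, hw⟩ := rep_facts.1 k hk i hi
  rw [show i = 25 + (i - 25) by omega, el_rep (by omega)]
  exact lprod_mem fun j hj => Subgroup.subset_closure ⟨j, hw j hj, rfl⟩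

/-- The normal forms with the last `n` levels. -/
def NF : ℕ → Set (Equiv.Perm Code)
  | 0 => {g | ∃ m : ℕ, g = el 6 ^ m}
  | n + 1 => {g | ∃ i ∈ R (4 - n), ∃ t ∈ NF n, g = el i * t}

theorem ruleWord_mem : ∀ (n : ℕ), n ≤ 5 → ∀ (q : List ℕ) (o : ℕ),
    (∀ j < n, q.getD (o + j) 0 < (R (5 - n + j)).length) → q.getD (o + n) 0 < 12 →
      lprod el (((List.range n).map fun j => (R (5 - n + j)).getD (q.getD (o + j) 0) 0) ++
        [13 + q.getD (o + n) 0]) ∈ NF n
  | 0, _, q, o, _, hz => ⟨q.getD o 0, by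
      rw [Nat.add_zero] at hz
      rw [List.range_zero, List.map_nil, List.nil_append, lprod, lprod, mul_one, Nat.add_zero, el_zpow hz]⟩
  | n + 1, hn, q, o, h, hz => by
    have hidx : 5 - (n + 1) = 4 - n := by omega
    have h0 := h 0 (by omega)
    simp only [Nat.add_zero] at h0
    have ih := ruleWord_mem n (by omega) q (o + 1) (fun j hj => by
      have := h (j + 1) (by omega)
      rwa [show o + 1 + j = o + (j + 1) by omega, show 5 - n + j = 5 - (n + 1) + (j + 1) by omega])
      (by rwa [show o + 1 + n = o + (n + 1) by omega])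
    refine ⟨(R (4 - n)).getD (q.getD o 0) 0, ?_, _, ih, ?_⟩
    · rw [hidx] at h0
      rw [List.getD_eq_getElem _ _ h0]
      exact List.getElem_mem h0
    · rw [List.range_succ_eq_map, List.map_cons, List.map_map, List.cons_append, lprod, Nat.add_zero,
        Nat.add_zero, hidx]
      congr 2
      rw [show o + (n + 1) = o + 1 + n by omega]
      congr 1
      refine List.map_congr_left fun j _ => ?_
      simp only [Function.comp]
      rw [show 4 - n + Nat.succ j = 5 - n + j by omega, show o + Nat.succ j = o + 1 + j by omega]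

theorem ruleOK_eq : ∀ k < 5, ∀ si < (levels.getD k []).length, ruleOK k si = true := by
  have hlen : (levels.getD 0 []).length = 7 ∧ (levels.getD 1 []).length = 6 ∧ (levels.getD 2 []).length = 5 ∧
      (levels.getD 3 []).length = 4 ∧ (levels.getD 4 []).length = 2 := by decide +kernel
  intro k hk si hsi
  rcases (show k = 0 ∨ k = 1 ∨ k = 2 ∨ k = 3 ∨ k = 4 by omega) with rfl | rfl | rfl | rfl | rfl
  · rw [hlen.1] at hsi; interval_cases si
    exacts [ruleOK0_0, ruleOK0_1, ruleOK0_2, ruleOK0_3, ruleOK0_4, ruleOK0_5, ruleOK0_6]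
  · rw [hlen.2.1] at hsi; interval_cases si
    exacts [ruleOK1_0, ruleOK1_1, ruleOK1_2, ruleOK1_3, ruleOK1_4, ruleOK1_5]
  · rw [hlen.2.2.1] at hsi; interval_cases si
    exacts [ruleOK2_0, ruleOK2_1, ruleOK2_2, ruleOK2_3, ruleOK2_4]
  · rw [hlen.2.2.2.1] at hsi; interval_cases si
    exacts [ruleOK3_0, ruleOK3_1, ruleOK3_2, ruleOK3_3]
  · rw [hlen.2.2.2.2] at hsi; interval_cases si
    exacts [ruleOK4_0, ruleOK4_1]

theorem rule_facts {k : ℕ} (hk : k < 5) : ∀ s ∈ levels.getD k [], ∀ i ∈ R k, el s * el i ∈ NF (5 - k) := by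
  intro s hs i hi
  obtain ⟨si, hsi, rfl⟩ := List.getElem_of_mem hs
  obtain ⟨ri, hri, rfl⟩ := List.getElem_of_mem hi
  have hok := ruleOK_eq k hk si hsi
  simp only [ruleOK, List.all_eq_true, List.mem_range, Bool.and_eq_true, Nat.blt_eq] at hok
  obtain ⟨⟨hlt, hz⟩, hsame⟩ := hok ri hri
  set q := ((rules.getD k []).getD si []).getD ri [] with hq
  have hm := ruleWord_mem (5 - k) (by omega) q 0
    (fun j hj => by rw [Nat.zero_add, show 5 - (5 - k) + j = k + j by omega]; exact hlt j hj)
    (by rw [Nat.zero_add]; exact hz)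
  rw [List.getD_eq_getElem _ _ hsi, show (reps.getD k []) = R k from rfl, List.getD_eq_getElem _ _ hri] at hsame
  have h := eq_of_sameW hsame
    (fun j hj => by
      simp only [List.mem_cons, List.not_mem_nil, or_false] at hj
      rcases hj with rfl | rfl
      · exact (level_facts.2.2.1 k (by omega) _ hs).trans (by norm_num)
      · exact (rep_facts.1 k hk _ hi).2.1)
    (fun j hj => by
      simp only [ruleWord, List.mem_append, List.mem_map, List.mem_range, List.mem_singleton] at hj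
      rcases hj with ⟨l, hl, rfl⟩ | rfl
      · have hl' := hlt l hl
        rw [List.getD_eq_getElem _ _ hl']
        exact (rep_facts.1 (k + l) (by omega) _ (List.getElem_mem hl')).2.1
      · omega)
  simp only [lprod, mul_one] at h
  rw [h]
  simpa only [ruleWord, R, Nat.zero_add, show 5 - (5 - k) = k by omega] using hm

/-- The normal forms make up the groups of the chain. -/
theorem NF_eq : ∀ n, n ≤ 5 → ∀ g, g ∈ NF n ↔ g ∈ Gk (5 - n)
  | 0, _, g => by
    refine ⟨fun ⟨m, hm⟩ => hm ▸ pow_mem (z_mem (by norm_num)) m, fun hg => ?_⟩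
    refine Gk_induction (p := fun g => g ∈ NF 0) ⟨0, (pow_zero _).symm⟩ ?_ hg
    rintro i hi _ - ⟨m, rfl⟩
    rw [show 5 - 0 = 5 from rfl, level_facts.2.1, List.mem_singleton] at hi
    exact ⟨m + 1, by rw [hi, pow_succ']⟩
  | n + 1, hn, g => by
    rw [show 5 - (n + 1) = 4 - n by omega]
    have ih := NF_eq n (by omega)
    have hsub : ∀ t ∈ NF n, t ∈ Gk (4 - n) := fun t ht => Gk_mono (by omega)
      (by rw [show 4 - n + 1 = 5 - n by omega]; exact (ih t).1 ht)
    constructor
    · rintro ⟨i, hi, t, ht, rfl⟩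
      exact mul_mem (rep_mem (by omega) hi) (hsub t ht)
    · intro hg
      refine Gk_induction (p := fun g => g ∈ NF (n + 1)) ?_ ?_ hg
      · obtain ⟨i, hi, he⟩ := rep_facts.2.1 (4 - n) (by omega)
        obtain ⟨h25, h107, -⟩ := rep_facts.1 (4 - n) (by omega) i hi
        refine ⟨i, hi, 1, (ih 1).2 (one_mem _), ?_⟩
        rw [show i = 25 + (i - 25) by omega, el_rep (by omega), he, lprod, one_mul]
      · rintro s hs _ - ⟨i, hi, t, ht, rfl⟩
        obtain ⟨i', hi', t', ht', e⟩ : el s * el i ∈ NF (n + 1) := by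
          have := rule_facts (k := 4 - n) (by omega) s hs i hi
          rwa [show 5 - (4 - n) = n + 1 by omega] at this
        refine ⟨i', hi', t' * t, (ih _).2 (mul_mem ((ih t').1 ht') ((ih t).1 ht)), ?_⟩
        rw [← mul_assoc, e, mul_assoc]

theorem z_central {g : Equiv.Perm Code} (hg : g ∈ Cover) : Commute (el 6) g := by
  refine Gk_induction (k := 0) (p := fun g => Commute (el 6) g) (Commute.one_right _) (fun i hi g _ h => ?_) hg
  rcases lt_or_eq_of_le (Nat.le_of_lt_succ (level_facts.2.2.1 0 (by norm_num) i hi)) with h6 | rfl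
  · exact (z_comm h6).mul_right h
  · exact (Commute.refl _).mul_right h

end

end CfsgLib.SchurMult.M22
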