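import Cfsg.Agent.Lib.SchurMult.M22.Map
import Cfsg.Agent.Lib.SchurMult.M22.Bound

/-!
The Schur multiplier of `M22` is cyclic of order twelve.
-/

set_option autoImplicit false
set_option maxRecDepth 100000

namespace CfsgLib.SchurMult.M22

noncomputable section

open Cfsg

attribute [local irreducible] el ts Cfsg.Spor.M22 sylEl

theorem ker_eq_zpowers : toM22.ker = Subgroup.zpowers zC := by
  refine le_antisymm (fun g hg => ?_) ((Subgroup.zpowers_le).2 (MonoidHom.mem_ker.2 toM22_z))
  obtain ⟨m, hm⟩ := ker_toM22 hg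
  rw [show g = zC ^ m from Subtype.ext hm]
  exact pow_mem (Subgroup.mem_zpowers _) m

theorem natCard_ker : Nat.card toM22.ker = 12 := by
  refine le_antisymm ?_ card_ker
  rw [ker_eq_zpowers, Nat.card_zpowers]
  exact Nat.le_of_dvd (by norm_num) (orderOf_dvd_of_pow_eq_one (Subtype.ext z_pow_twelve))

/-- The Schur multiplier of `M22` is cyclic of order twelve. -/
theorem hasCyclicSchurMultiplier : Cfsg.HasCyclicSchurMultiplier ↥Spor.M22 12 :=
  hasCyclicSchurMultiplier_of_local (by norm_num) toM22 isStem_toM22
    (by rw [ker_eq_zpowers]; infer_instance) natCard_ker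
    fun _ _ _ _ hσ p hp h => local_bound hσ p hp h

end

end CfsgLib.SchurMult.M22
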