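import Cfsg.Agent.Lib.SchurMult.M22.Cover
import Cfsg.Agent.Lib.OutMathieu.Outer
import Cfsg.Prelude.Def_KGroupFacts

/-!
The cover maps onto `M22` with kernel the powers of the central element, and this is a stem extension.
-/

set_option autoImplicit false
set_option maxRecDepth 100000

namespace CfsgLib.SchurMult.M22

noncomputable section

open Cfsg CfsgLib.Golay
open CfsgLib.SporRecognition.CosetCert (field)
open CfsgLib.SchurMult (lprod lprod_append)
open scoped commutatorElement

attribute [local irreducible] el ts Cfsg.Spor.M22 R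

/-- The code of the first point of the block of a point of the code. -/
def pc (p : GolayPt) : Code :=
  ⟨12 * idx p, by have := idx_lt p; show 12 * idx p < 12 * 1487; omega⟩

theorem pc_inj {p q : GolayPt} (h : pc p = pc q) : p = q := by
  have := congrArg Fin.val h
  exact idx_injective (by simp [pc] at this; omega)

/-- A permutation lies over a permutation of the points. -/
def Over (g : Equiv.Perm Code) (m : Spor.M22) : Prop :=
  ∀ p, g (pc p) = pc ((m : Equiv.Perm GolayPt) p)

theorem over_unique {g : Equiv.Perm Code} {m m' : Spor.M22} (h : Over g m) (h' : Over g m') : m = m' :=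
  Subtype.ext (Equiv.ext fun p => pc_inj ((h p).symm.trans (h' p)))

theorem over_mul {g h : Equiv.Perm Code} {m n : Spor.M22} (hg : Over g m) (hh : Over h n) :
    Over (g * h) (m * n) := fun p => by
  rw [Equiv.Perm.mul_apply, hh, hg]; rfl

theorem over_one : Over 1 1 := fun _ => rfl

theorem over_gen {i : ℕ} (hi : i < 13) : ∃ m, Over (el i) m := by
  have h := pointsOK_eq
  simp only [pointsOK, List.all_eq_true, List.mem_range, Bool.and_eq_true] at h
  obtain ⟨⟨⟨hin, h0⟩, h23⟩, hall⟩ := h i hi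
  obtain ⟨g, hg⟩ := exists_isTbl (t := pointTbls.getD i 0) (by
    simp only [inM24, Bool.and_eq_true] at hin; exact hin.1)
  have hgm : g ∈ Spor.M22 := by
    unfold Spor.M22 Spor.M23
    refine Subgroup.mem_inf.2 ⟨Subgroup.mem_inf.2 ⟨mem_M24_of_isTbl hg hin, ?_⟩, ?_⟩
    · refine MulAction.mem_stabilizer_iff.2 (idx_injective ?_)
      rw [Equiv.Perm.smul_def, hg]; exact Nat.eq_of_beq_eq_true h23
    · refine MulAction.mem_stabilizer_iff.2 (idx_injective ?_)
      rw [Equiv.Perm.smul_def, hg]; exact Nat.eq_of_beq_eq_true h0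
  refine ⟨⟨g, hgm⟩, fun p => Fin.ext ?_⟩
  rw [el_val (by omega)]
  show rot (field (ts.getD i 0) 15 (12 * idx p / 12)) (12 * idx p % 12) = 12 * idx (g p)
  rw [Nat.mul_div_cancel_left _ (by norm_num), Nat.mul_mod_right, rot_zero, hg,
    Nat.eq_of_beq_eq_true (hall (idx p) (idx_lt p))]
  rfl

theorem exists_over {g : Equiv.Perm Code} (hg : g ∈ Cover) : ∃ m, Over g m := by
  refine Gk_induction (k := 0) (p := fun g => ∃ m, Over g m) ⟨1, over_one⟩ ?_ hg
  rintro i hi h - ⟨m, hm⟩
  obtain ⟨n, hn⟩ := over_gen (i := i) ((level_facts.2.2.1 0 (by norm_num) i hi).trans (by norm_num))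
  exact ⟨n * m, over_mul hn hm⟩

/-- The covering map. -/
def toM22 : Cover →* Spor.M22 where
  toFun g := (exists_over g.2).choose
  map_one' := over_unique (exists_over (one_mem _)).choose_spec over_one
  map_mul' a b := over_unique (exists_over (a * b).2).choose_spec
    (over_mul (exists_over a.2).choose_spec (exists_over b.2).choose_spec)

theorem over_toM22 (g : Cover) : Over g (toM22 g) := (exists_over g.2).choose_spec

/-- A base point as a code. -/
def bp (k : Fin 5) : Code := pc (pt (basePts.getD k 0))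

theorem bp_val : ∀ k : Fin 5, ((bp k : Code) : ℕ) = 12 * basePts.getD k 0 := by decide +kernel

theorem chain_facts (k : Fin 5) : (∀ i ∈ R k, ∀ j : Fin 5, j.1 < k.1 → el i (bp j) = bp j) ∧
    ∀ i ∈ R k, ∀ i' ∈ R k, el i (bp k) = el i' (bp k) → i = i' := by
  have h := chainOK_eq
  simp only [chainOK, List.all_eq_true, List.mem_range, Bool.and_eq_true, decide_eq_true_eq] at h
  obtain ⟨h1, h2⟩ := h k k.2
  have hR : reps.getD k [] = R k := by unfold R; rfl
  rw [hR] at h1 h2
  refine ⟨fun i hi j hj => Fin.ext ?_, fun i hi i' hi' e => ?_⟩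
  · rw [el_val (rep_facts.1 k k.2 i hi).2.1, bp_val]
    exact Nat.eq_of_beq_eq_true (h1 i hi j hj)
  · have e' := congrArg Fin.val e
    rw [el_val (rep_facts.1 k k.2 i hi).2.1, el_val (rep_facts.1 k k.2 i' hi').2.1, bp_val] at e'
    exact List.inj_on_of_nodup_map h2 hi hi' e'

theorem z_fix (p : GolayPt) : el 6 (pc p) = pc p := by
  have h := pointsOK_eq
  simp only [pointsOK, List.all_eq_true, List.mem_range, Bool.and_eq_true] at h
  refine Fin.ext ?_
  rw [el_val (by norm_num)]
  show rot (field (ts.getD 6 0) 15 (12 * idx p / 12)) (12 * idx p % 12) = 12 * idx p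
  have hz : ∀ u < 24, tblAt (pointTbls.getD 6 0) u = u := by decide +kernel
  rw [Nat.mul_div_cancel_left _ (by norm_num), Nat.mul_mod_right, rot_zero,
    Nat.eq_of_beq_eq_true ((h 6 (by norm_num)).2 (idx p) (idx_lt p)), hz _ (idx_lt p)]
  rfl

theorem z_pow_fix (p : GolayPt) : ∀ m : ℕ, (el 6 ^ m) (pc p) = pc p
  | 0 => rfl
  | m + 1 => by rw [pow_succ', Equiv.Perm.mul_apply, z_pow_fix p m, z_fix]

theorem NF_fix : ∀ n, n ≤ 5 → ∀ g ∈ NF n, ∀ j : Fin 5, j.1 < 5 - n → g (bp j) = bp j
  | 0, _, g, ⟨m, hm⟩, j, _ => by subst hm; exact z_pow_fix _ m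
  | n + 1, hn, g, ⟨i, hi, t, ht, hg⟩, j, hj => by
    subst hg
    rw [Equiv.Perm.mul_apply, NF_fix n (by omega) t ht j (by omega)]
    exact (chain_facts ⟨4 - n, by omega⟩).1 i hi j (by show j.1 < 4 - n; omega)

theorem NF_inj : ∀ n, n ≤ 5 → ∀ g ∈ NF n, ∀ g' ∈ NF n, (∀ j : Fin 5, g (bp j) = g' (bp j)) →
    ∃ m : ℕ, g' = g * el 6 ^ m
  | 0, _, g, ⟨m, hm⟩, g', ⟨m', hm'⟩, _ => by
    subst hm hm'
    obtain ⟨c, hc⟩ : ∃ c, m ≤ m' + 12 * c := ⟨m, by omega⟩
    refine ⟨m' + 12 * c - m, ?_⟩
    rw [← pow_add, show m + (m' + 12 * c - m) = m' + 12 * c by omega, pow_add, pow_mul, z_pow_twelve,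
      one_pow, mul_one]
  | n + 1, hn, g, ⟨i, hi, t, ht, hg⟩, g', ⟨i', hi', t', ht', hg'⟩, e => by
    subst hg hg'
    have hk : 4 - n < 5 := by omega
    have hii : i = i' := by
      refine (chain_facts ⟨4 - n, hk⟩).2 i hi i' hi' ?_
      have := e ⟨4 - n, hk⟩
      rwa [Equiv.Perm.mul_apply, Equiv.Perm.mul_apply,
        NF_fix n (by omega) t ht _ (show 4 - n < 5 - n by omega),
        NF_fix n (by omega) t' ht' _ (show 4 - n < 5 - n by omega)] at this
    subst hii
    obtain ⟨m, hm⟩ := NF_inj n (by omega) t ht t' ht' fun j => (el i).injective (e j)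
    exact ⟨m, by rw [hm, mul_assoc]⟩

theorem mem_NF (g : Cover) : (g : Equiv.Perm Code) ∈ NF 5 := (NF_eq 5 le_rfl _).2 g.2

theorem ker_toM22 {g : Cover} (hg : g ∈ toM22.ker) : ∃ m : ℕ, (g : Equiv.Perm Code) = el 6 ^ m := by
  obtain ⟨m, hm⟩ := NF_inj 5 le_rfl 1 (mem_NF 1) g (mem_NF g) fun j => by
    show bp j = (g : Equiv.Perm Code) (pc _)
    rw [over_toM22 g _, MonoidHom.mem_ker.1 hg]; rfl
  exact ⟨m, by rw [hm, one_mul]⟩

theorem ker_le_center : toM22.ker ≤ Subgroup.center Cover := by
  intro g hg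
  obtain ⟨m, hm⟩ := ker_toM22 hg
  refine Subgroup.mem_center_iff.2 fun h => Subtype.ext ?_
  show (h : Equiv.Perm Code) * g = g * h
  rw [hm]
  exact ((z_central h.2).pow_left m).eq.symm

/-- The central element in the cover. -/
def zC : Cover := ⟨el 6, gen_mem (by norm_num)⟩

theorem toM22_z : toM22 zC = 1 :=
  over_unique (over_toM22 zC) fun p => by rw [show ((zC : Cover) : Equiv.Perm Code) = el 6 from rfl]; exact z_fix p

theorem card_M22 : Nat.card Spor.M22 = 443520 := by
  rw [CfsgLib.OutMathieu.M22_eq_stabK, card_stabK_two]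

theorem card_R {k : ℕ} (hk : k < 5) : Nat.card {i // i ∈ R k} = (R k).length := by
  classical
  have hnd : ∀ k < 5, (reps.getD k []).Nodup := by decide +kernel
  have hR : reps.getD k [] = R k := by unfold R; rfl
  rw [Nat.card_eq_fintype_card, Fintype.card_of_subtype (R k).toFinset (fun x => List.mem_toFinset),
    List.toFinset_card_of_nodup (hR ▸ hnd k hk)]

/-- Products of representatives. -/
def prodRep : (n : ℕ) → Type
  | 0 => Unit
  | n + 1 => {i // i ∈ R (4 - n)} × prodRep n

/-- Their values. -/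
def prodVal : (n : ℕ) → prodRep n → Equiv.Perm Code
  | 0, _ => 1
  | n + 1, p => el p.1.1 * prodVal n p.2

theorem prodVal_mem : ∀ n (p : prodRep n), prodVal n p ∈ NF n
  | 0, _ => ⟨0, rfl⟩
  | n + 1, p => ⟨p.1.1, p.1.2, _, prodVal_mem n p.2, rfl⟩

theorem prodVal_inj : ∀ n, n ≤ 5 → ∀ p q : prodRep n,
    (∀ j : Fin 5, prodVal n p (bp j) = prodVal n q (bp j)) → p = q
  | 0, _, _, _, _ => rfl
  | n + 1, hn, p, q, e => by
    have hk : 4 - n < 5 := by omega
    have hii : p.1 = q.1 := by
      refine Subtype.ext ((chain_facts ⟨4 - n, hk⟩).2 _ p.1.2 _ q.1.2 ?_)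
      have := e ⟨4 - n, hk⟩
      rwa [prodVal, prodVal, Equiv.Perm.mul_apply, Equiv.Perm.mul_apply,
        NF_fix n (by omega) _ (prodVal_mem n _) _ (show 4 - n < 5 - n by omega),
        NF_fix n (by omega) _ (prodVal_mem n _) _ (show 4 - n < 5 - n by omega)] at this
    refine Prod.ext hii (prodVal_inj n (by omega) _ _ fun j => ?_)
    have := e j
    rw [prodVal, prodVal, hii, Equiv.Perm.mul_apply, Equiv.Perm.mul_apply] at this
    exact (el q.1.1).injective this

theorem card_prodRep : Nat.card (prodRep 5) = 443520 := by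
  show Nat.card ({i // i ∈ R 0} × {i // i ∈ R 1} × {i // i ∈ R 2} × {i // i ∈ R 3} × {i // i ∈ R 4} × Unit) = _
  obtain ⟨-, -, l0, l1, l2, l3, l4⟩ := rep_facts
  simp only [Nat.card_prod, Nat.card_unique]
  rw [card_R (k := 0) (by norm_num), card_R (k := 1) (by norm_num), card_R (k := 2) (by norm_num),
    card_R (k := 3) (by norm_num), card_R (k := 4) (by norm_num), l0, l1, l2, l3, l4]

theorem surjective_toM22 : Function.Surjective toM22 := by
  classical
  let e : prodRep 5 → Cover := fun p => ⟨prodVal 5 p, (NF_eq 5 le_rfl _).1 (prodVal_mem 5 p)⟩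
  have hinj : Function.Injective (toM22 ∘ e) := fun p q h => prodVal_inj 5 le_rfl p q fun j => by
    show (e p : Equiv.Perm Code) (pc _) = (e q : Equiv.Perm Code) (pc _)
    rw [over_toM22 (e p) _, over_toM22 (e q) _]
    exact congrArg (fun m : Spor.M22 => pc ((m : Equiv.Perm GolayPt) _)) h
  have : Finite (prodRep 5) := Finite.of_injective _ hinj
  exact ((Nat.bijective_iff_injective_and_card _).2 ⟨hinj, by rw [card_prodRep, card_M22]⟩).2.of_comp

theorem z_mem_commutator : zC ∈ commutator Cover := by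
  have hlt : ∀ w ∈ [commWord.1, commWord.2.1, commWord.2.2.1, commWord.2.2.2], ∀ i ∈ w, i < 6 := by
    decide +kernel
  have hinv : ∀ w : List ℕ, (∀ i ∈ w, i < 6) → lprod el (invWord w) = (lprod el w)⁻¹ := by
    intro w
    induction w with
    | nil => intro _; simp [invWord, lprod]
    | cons i w ih =>
      intro hw
      have hi := hw i (List.mem_cons_self ..)
      have h1 := eq_of_sameW (sameW_of_perm (i := i) (by omega)).2
        (fun j hj => by
          simp only [List.mem_cons, List.not_mem_nil, or_false] at hj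
          have := invIdx_lt i (by omega); omega)
        (by simp)
      rw [show invWord (i :: w) = invWord w ++ [invIdx i] by simp [invWord], lprod_append,
        ih fun j hj => hw j (List.mem_cons_of_mem _ hj)]
      simp only [lprod, mul_one] at h1 ⊢
      rw [eq_inv_of_mul_eq_one_left h1, mul_inv_rev]
  have hmem : ∀ w : List ℕ, (∀ i ∈ w, i < 6) → lprod el w ∈ Cover := fun w hw =>
    lprod_mem fun i hi => gen_mem ((hw i hi).trans (by norm_num))
  simp only [List.mem_cons, List.not_mem_nil, or_false, forall_eq_or_imp, forall_eq] at hlt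
  obtain ⟨ha, hb, hc, hd⟩ := hlt
  have hw : ∀ i ∈ commList, i < 107 := by decide +kernel
  have e := eq_of_sameW commOK_eq hw (fun j hj => by rw [List.eq_of_mem_replicate hj]; norm_num)
  simp only [commList, lprod_append, hinv _ ha, hinv _ hb, hinv _ hc, hinv _ hd, lprod_replicate] at e
  set A : Cover := ⟨_, hmem _ ha⟩
  set B : Cover := ⟨_, hmem _ hb⟩
  set C : Cover := ⟨_, hmem _ hc⟩
  set D : Cover := ⟨_, hmem _ hd⟩
  have e' : ⁅A, B⁆ * ⁅D, C⁆ = zC ^ commExp := by
    refine Subtype.ext (Eq.trans ?_ e)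
    simp [A, B, C, D, commutatorElement_def, mul_assoc]
  have hz : zC ^ commExp ∈ commutator Cover := by
    rw [← e']
    exact mul_mem (Subgroup.commutator_mem_commutator (Subgroup.mem_top _) (Subgroup.mem_top _))
      (Subgroup.commutator_mem_commutator (Subgroup.mem_top _) (Subgroup.mem_top _))
  have hd' : (zC ^ commExp) ^ commExp = zC := by
    refine Subtype.ext ?_
    show (el 6 ^ commExp) ^ commExp = el 6
    rw [← pow_mul, show commExp * commExp = 12 * 4 + 1 from rfl, pow_add, pow_mul, z_pow_twelve, one_pow,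
      one_mul, pow_one]
  rw [← hd']
  exact pow_mem hz _

theorem isStem_toM22 : Cfsg.IsStemExtension toM22 := by
  refine ⟨surjective_toM22, ker_le_center, fun g hg => ?_⟩
  obtain ⟨m, hm⟩ := ker_toM22 hg
  rw [show g = zC ^ m from Subtype.ext hm]
  exact pow_mem z_mem_commutator m

theorem card_ker : 12 ≤ Nat.card toM22.ker := by
  have hf : Function.Injective fun m : Fin 12 => (⟨zC ^ (m : ℕ), by
      rw [MonoidHom.mem_ker, map_pow, toM22_z, one_pow]⟩ : toM22.ker) := by
    intro a b h
    have h' : el 6 ^ (a : ℕ) = el 6 ^ (b : ℕ) := congrArg (fun x : toM22.ker => ((x : Cover) : Equiv.Perm Code)) h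
    wlog hab : (a : ℕ) ≤ b generalizing a b
    · exact (this h.symm h'.symm (by omega)).symm
    have : 12 ∣ (b : ℕ) - a := z_pow_eq_one (by
      have := h'
      rw [show (b : ℕ) = a + (b - a) by omega, pow_add, left_eq_mul] at this
      exact this)
    have := b.2
    exact Fin.ext (by omega)
  simpa using Nat.card_le_card_of_injective _ hf

end

end CfsgLib.SchurMult.M22
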