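import Cfsg.Agent.Lib.SchurMult.M22.Data

/-!
The checker for the products of generators and representatives.
-/

set_option autoImplicit false

namespace CfsgLib.SchurMult.M22

/-- The word of one entry: representatives from level `k` on, then a power of the central element. -/
def ruleWord (k : ℕ) (q : List ℕ) : List ℕ :=
  ((List.range (5 - k)).map fun j => (reps.getD (k + j) []).getD (q.getD j 0) 0) ++ [13 + q.getD (5 - k) 0]

/-- The products of one generator with the representatives of one level. -/
noncomputable def ruleOK (k si : ℕ) : Bool :=
  (List.range (reps.getD k []).length).all fun ri =>
    let q := ((rules.getD k []).getD si []).getD ri []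
    ((List.range (5 - k)).all fun j => Nat.blt (q.getD j 0) (reps.getD (k + j) []).length) &&
      Nat.blt (q.getD (5 - k) 0) 12 &&
      sameW ts [(levels.getD k []).getD si 0, (reps.getD k []).getD ri 0] (ruleWord k q)

end CfsgLib.SchurMult.M22
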