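import Cfsg.Agent.Lib.SchurMult.M22.SylData
import Cfsg.Agent.Lib.Golay.Perm

/-!
The checks of the certificate for the `2`-part.
-/

set_option autoImplicit false
set_option maxHeartbeats 0
set_option maxRecDepth 100000

namespace CfsgLib.SchurMult.M22

open CfsgLib.Golay CfsgLib.SchurMult.ModCollect

/-- The image of a point number under a word. -/
def pimg : List ℕ → ℕ → ℕ
  | [], u => u
  | i :: w, u => tblAt (sylTbls.getD i 0) (pimg w u)

/-- Two words act equally on the points. -/
def pSame (w w' : List ℕ) : Bool := (List.range 24).all fun u => pimg w u == pimg w' u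

/-- The tables lie in `M22`. -/
def sylMem : Bool :=
  (List.range 10).all fun i => inM24 (sylTbls.getD i 0) && tblAt (sylTbls.getD i 0) 0 == 0 &&
    tblAt (sylTbls.getD i 0) 23 == 23

/-- The relations and the conjugations hold. -/
def sylRel : Bool :=
  (sylCert.rels.all fun r => r.1.all (fun i => decide (i < 7)) && r.2.all (fun i => decide (i < 7)) && pSame r.1 r.2) &&
    sylCert.conjs.all fun q => decide (q.1 < 3) &&
      pSame ((7 + q.1) :: Collector.digits 7 q.2.1) (Collector.digits 7 q.2.2 ++ [7 + q.1])

/-- The normal forms act differently. -/
def sylInj : Bool :=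
  decide ((List.range 128).map fun x => (List.range 24).map fun u => pimg (Collector.digits 7 x) u).Nodup

theorem sylMem_eq : sylMem = true := by decide +kernel
theorem sylRel_eq : sylRel = true := by decide +kernel
theorem sylInj_eq : sylInj = true := by decide +kernel
theorem sylTable_eq : sylCert.tableOK = true := by decide +kernel
theorem sylSolved_eq : sylCert.solvedOK = true := by decide +kernel
theorem sylDerived_eq : sylCert.derivedOK = true := by decide +kernel

end CfsgLib.SchurMult.M22
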